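import Cfsg.Agent.S0051

/-!
# S5242: central extensions which agree over a Sylow subgroup (helper800)
-/

set_option autoImplicit false

namespace Cfsg.Agent.H800.FX

/-- Gaschütz modulo a central subgroup. -/
theorem exists_compl {Γ : Type*} [Group Γ] [Finite Γ] (D K s : Subgroup Γ) (hD : D ≤ Subgroup.center Γ)
    (hK : K ≤ Subgroup.center Γ) (hDK : D ⊓ K = ⊥) (hDs : D ≤ s) (hsK : s ⊓ K = ⊥)
    (hcop : (Nat.card K).Coprime (s ⊔ K).index) :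
    ∃ H : Subgroup Γ, D ≤ H ∧ H ⊓ K = ⊥ ∧ H ⊔ K = ⊤ := by
  have hDn : D.Normal := ⟨fun d hd g => by
    have h1 := Subgroup.mem_center_iff.1 (hD hd) g
    rw [h1]
    simpa using hd⟩
  have hKn : K.Normal := ⟨fun d hd g => by
    have h1 := Subgroup.mem_center_iff.1 (hK hd) g
    rw [h1]
    simpa using hd⟩
  set q := QuotientGroup.mk' D with hq
  have hqs : Function.Surjective q := QuotientGroup.mk'_surjective D
  have hqk : q.ker = D := QuotientGroup.ker_mk' D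
  have hK1n : (K.map q).Normal := hKn.map q hqs
  have hK1c : IsMulCommutative ↥(K.map q) := ⟨⟨by
    rintro ⟨_, a, ha, rfl⟩ ⟨_, b, hb, rfl⟩
    apply Subtype.ext
    change q a * q b = q b * q a
    rw [← map_mul, ← map_mul]
    congr 1
    exact (Subgroup.mem_center_iff.1 (hK hb) a)⟩⟩
  have hDsK : D ≤ s ⊔ K := hDs.trans le_sup_left
  have hidx : ((s ⊔ K).map q).index = (s ⊔ K).index := by
    rw [Subgroup.index_map, hqk, MonoidHom.range_eq_top.2 hqs, Subgroup.index_top, mul_one]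
    congr 1
    exact sup_eq_left.2 hDsK
  have hcard : Nat.card ↥(K.map q) ∣ Nat.card K := Subgroup.card_map_dvd K q
  obtain ⟨H, hH⟩ := Cfsg.Agent.S0051.result (K.map q) ((s ⊔ K).map q) (Subgroup.map_mono le_sup_right)
    (by rw [hidx]; exact Nat.Coprime.coprime_dvd_left hcard hcop) (s.map q) (Subgroup.map_mono le_sup_left)
    (by
      rw [eq_bot_iff]
      rintro x ⟨⟨a, ha, rfl⟩, ⟨k, hk, hka⟩⟩
      have h1 : a * k⁻¹ ∈ D := by
        rw [← hqk, MonoidHom.mem_ker, map_mul, map_inv, hka, mul_inv_cancel]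
      have h2 : k ∈ s := by
        have : k = (a * k⁻¹)⁻¹ * a := by group
        rw [this]
        exact s.mul_mem (s.inv_mem (hDs h1)) ha
      have h3 : k = 1 := by
        have : k ∈ s ⊓ K := ⟨h2, hk⟩
        rwa [hsK, Subgroup.mem_bot] at this
      rw [Subgroup.mem_bot, ← hka, h3, map_one])
    (by rw [← Subgroup.map_sup, sup_comm])
  refine ⟨H.comap q, ?_, ?_, ?_⟩
  · intro x hx
    have h1 : q x = 1 := by rw [← MonoidHom.mem_ker, hqk]; exact hx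
    rw [Subgroup.mem_comap, h1]
    exact H.one_mem
  · rw [eq_bot_iff]
    rintro x ⟨hx1, hx2⟩
    have h1 : q x ∈ K.map q ⊓ H := ⟨⟨x, hx2, rfl⟩, hx1⟩
    rw [hH.disjoint.eq_bot, Subgroup.mem_bot] at h1
    have h2 : x ∈ D ⊓ K := ⟨by rw [← hqk]; exact h1, hx2⟩
    rwa [hDK] at h2
  · rw [eq_top_iff]
    intro x _
    obtain ⟨⟨⟨_, k, hk, rfl⟩, ⟨h, hh⟩⟩, hkh⟩ := hH.2 (q x)
    replace hkh : q k * h = q x := hkh
    have h2 : q (k⁻¹ * x) = h := by rw [map_mul, map_inv, ← hkh]; group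
    have h3 : x = k * (k⁻¹ * x) := by group
    rw [h3]
    exact Subgroup.mul_mem _ ((le_sup_right : K ≤ _) hk) ((le_sup_left : H.comap q ≤ _) (by
      rw [Subgroup.mem_comap, h2]; exact hh))

/-- **Two central extensions of `Ḡ` by `A` which agree over a Sylow subgroup are isomorphic.** -/
theorem glue {T : Type*} [Group T] {G₁ G₂ Gb : Type*} [Group G₁] [Group G₂] [Group Gb] [Finite G₁] [Finite G₂]
    (ι₁ : T →* G₁) (ι₂ : T →* G₂) (h₁ : Function.Injective ι₁) (h₂ : Function.Injective ι₂) (A : Subgroup T)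
    (c₁ : A.map ι₁ ≤ Subgroup.center G₁) (c₂ : A.map ι₂ ≤ Subgroup.center G₂)
    (π₁ : G₁ →* Gb) (π₂ : G₂ →* Gb) (s₁ : Function.Surjective π₁) (s₂ : Function.Surjective π₂)
    (k₁ : π₁.ker = A.map ι₁) (k₂ : π₂.ker = A.map ι₂) (hag : ∀ t, π₁ (ι₁ t) = π₂ (ι₂ t))
    (hcop : (Nat.card A).Coprime ι₁.range.index) :
    ∃ Ψ : G₁ ≃* G₂, (∀ g, π₂ (Ψ g) = π₁ g) ∧ (∀ a ∈ A, Ψ (ι₁ a) = ι₂ a) ∧
      ∀ t, ∃ a ∈ A, Ψ (ι₁ t) = ι₂ (t * a) := by
  classical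
  -- the fibre product
  let Γ : Subgroup (G₁ × G₂) := ((π₁.comp (MonoidHom.fst G₁ G₂)).eqLocus (π₂.comp (MonoidHom.snd G₁ G₂)))
  have hΓ : ∀ x : G₁ × G₂, x ∈ Γ ↔ π₁ x.1 = π₂ x.2 := fun x => Iff.rfl
  have ha2 : ∀ a ∈ A, π₂ (ι₂ a) = 1 := fun a ha => by
    rw [← MonoidHom.mem_ker, k₂]
    exact ⟨a, ha, rfl⟩
  -- the diagonal copy of `T`
  let s : T →* Γ := ((ι₁.prod ι₂).codRestrict Γ (fun t => hag t))
  let k : A →* Γ := ((MonoidHom.prod 1 (ι₂.comp A.subtype)).codRestrict Γ (fun a => by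
    rw [hΓ]
    change π₁ 1 = π₂ (ι₂ a)
    rw [map_one, ha2 a a.2]))
  have hs : ∀ t, (s t : G₁ × G₂) = (ι₁ t, ι₂ t) := fun t => rfl
  have hk : ∀ a, (k a : G₁ × G₂) = (1, ι₂ a) := fun t => rfl
  have hDc : A.map s ≤ Subgroup.center Γ := by
    rintro _ ⟨a, ha, rfl⟩
    rw [Subgroup.mem_center_iff]
    rintro ⟨⟨x, y⟩, hxy⟩
    apply Subtype.ext
    change (x * ι₁ a, y * ι₂ a) = (ι₁ a * x, ι₂ a * y)
    rw [Subgroup.mem_center_iff.1 (c₁ ⟨a, ha, rfl⟩) x, Subgroup.mem_center_iff.1 (c₂ ⟨a, ha, rfl⟩) y]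
  have hKc : k.range ≤ Subgroup.center Γ := by
    rintro _ ⟨a, rfl⟩
    rw [Subgroup.mem_center_iff]
    rintro ⟨⟨x, y⟩, hxy⟩
    apply Subtype.ext
    change (x * 1, y * ι₂ a) = (1 * x, ι₂ a * y)
    rw [Subgroup.mem_center_iff.1 (c₂ ⟨a, a.2, rfl⟩) y, mul_one, one_mul]
  have hsk : s.range ⊓ k.range = ⊥ := by
    rw [eq_bot_iff]
    rintro x ⟨⟨t, rfl⟩, ⟨a, ha⟩⟩
    have h3 : ι₁ t = 1 := (congrArg (fun z : Γ => z.1.1) ha).symm
    have h4 : t = 1 := h₁ (by rw [h3, map_one])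
    rw [Subgroup.mem_bot, h4, map_one]
  have hsup : ∀ x : Γ, x ∈ s.range ⊔ k.range ↔ x.1.1 ∈ ι₁.range := by
    intro x
    constructor
    · intro hx
      have h5 : s.range ⊔ k.range ≤ ι₁.range.comap ((MonoidHom.fst G₁ G₂).comp Γ.subtype) := by
        refine sup_le ?_ ?_
        · rintro _ ⟨t, rfl⟩; exact ⟨t, rfl⟩
        · rintro _ ⟨a, rfl⟩; exact ⟨1, map_one _⟩
      exact h5 hx
    · rintro ⟨t, ht⟩
      have h6 : π₂ ((ι₂ t)⁻¹ * x.1.2) = 1 := by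
        rw [map_mul, map_inv, ← hag, ht, (hΓ x.1).1 x.2, inv_mul_cancel]
      have h7 : (ι₂ t)⁻¹ * x.1.2 ∈ A.map ι₂ := by rw [← k₂]; exact h6
      obtain ⟨a, ha, h8⟩ := h7
      have h9 : x = s t * k ⟨a, ha⟩ := by
        apply Subtype.ext
        apply Prod.ext
        · change x.1.1 = ι₁ t * 1
          rw [mul_one, ht]
        · change x.1.2 = ι₂ t * ι₂ a
          rw [h8, mul_inv_cancel_left]
      rw [h9]
      exact Subgroup.mul_mem _ ((le_sup_left : s.range ≤ _) ⟨t, rfl⟩) ((le_sup_right : k.range ≤ _) ⟨_, rfl⟩)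
  have hidx : (s.range ⊔ k.range).index = ι₁.range.index := by
    have h10 : s.range ⊔ k.range = ι₁.range.comap ((MonoidHom.fst G₁ G₂).comp Γ.subtype) := by
      ext x
      exact hsup x
    rw [h10]
    apply Subgroup.index_comap_of_surjective
    intro g
    obtain ⟨y, hy⟩ := s₂ (π₁ g)
    exact ⟨⟨(g, y), hy.symm⟩, rfl⟩
  have hkinj : Function.Injective k := by
    intro a b hab
    have h11 : ι₂ a = ι₂ b := congrArg (fun z : Γ => z.1.2) hab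
    exact Subtype.ext (h₂ h11)
  have hkcard : Nat.card k.range = Nat.card A := (Nat.card_congr (MonoidHom.ofInjective hkinj).toEquiv).symm
  have hDs : A.map s ≤ s.range := by
    rintro _ ⟨a, -, rfl⟩; exact ⟨a, rfl⟩
  obtain ⟨H, hH1, hH2, hH3⟩ := exists_compl (A.map s) k.range s.range hDc hKc
    (by rw [eq_bot_iff, ← hsk]; exact inf_le_inf_right _ hDs) hDs hsk (by rw [hidx, hkcard]; exact hcop)
  -- the graph
  have hkr : ∀ x : Γ, x.1.1 = 1 → x ∈ k.range := by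
    intro x hx
    have h6 : π₂ x.1.2 = 1 := by rw [← (hΓ x.1).1 x.2, hx, map_one]
    have h7 : x.1.2 ∈ A.map ι₂ := by rw [← k₂]; exact h6
    obtain ⟨a, ha, h8⟩ := h7
    refine ⟨⟨a, ha⟩, Subtype.ext (Prod.ext ?_ ?_)⟩
    · exact hx.symm
    · exact h8
  have hex : ∀ g : G₁, ∃ y : G₂, ∃ h : π₁ g = π₂ y, (⟨(g, y), h⟩ : Γ) ∈ H := by
    intro g
    obtain ⟨y, hy⟩ := s₂ (π₁ g)
    have h12 : (⟨(g, y), hy.symm⟩ : Γ) ∈ H ⊔ k.range := by rw [hH3]; trivial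
    have hkn : k.range.Normal := ⟨fun d hd g => by
      have h1 := Subgroup.mem_center_iff.1 (hKc hd) g
      rw [h1]
      simpa using hd⟩
    rw [Subgroup.mem_sup_of_normal_right] at h12
    obtain ⟨h, hh, _, ⟨a, rfl⟩, h13⟩ := h12
    have h14 : h.1.1 = g := by
      have := congrArg (fun z : Γ => z.1.1) h13
      change h.1.1 * 1 = g at this
      rwa [mul_one] at this
    refine ⟨h.1.2, by rw [← h14]; exact h.2, ?_⟩
    have h15 : (⟨(g, h.1.2), by rw [hΓ]; change π₁ g = _; rw [← h14]; exact h.2⟩ : Γ) = h :=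
      Subtype.ext (Prod.ext h14.symm rfl)
    rw [h15]
    exact hh
  choose f hf1 hf2 using hex
  have huniq : ∀ (g : G₁) (y y' : G₂) (h : π₁ g = π₂ y) (h' : π₁ g = π₂ y'), (⟨(g, y), h⟩ : Γ) ∈ H →
      (⟨(g, y'), h'⟩ : Γ) ∈ H → y = y' := by
    intro g y y' h h' hy hy'
    have h16 : (⟨(g, y), h⟩ : Γ)⁻¹ * ⟨(g, y'), h'⟩ ∈ H := H.mul_mem (H.inv_mem hy) hy'
    have h17 : (⟨(g, y), h⟩ : Γ)⁻¹ * ⟨(g, y'), h'⟩ ∈ H ⊓ k.range := ⟨h16, hkr _ (by
      change g⁻¹ * g = 1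
      exact inv_mul_cancel g)⟩
    rw [hH2, Subgroup.mem_bot] at h17
    have h18 : y⁻¹ * y' = 1 := congrArg (fun z : Γ => z.1.2) h17
    exact (inv_mul_eq_one.1 h18)
  let Ψ : G₁ →* G₂ := MonoidHom.mk' f (fun x y => huniq (x * y) _ _ (hf1 _) (by
      rw [map_mul, map_mul, hf1, hf1]) (hf2 _) (H.mul_mem (hf2 x) (hf2 y)))
  have hΨA : ∀ a ∈ A, Ψ (ι₁ a) = ι₂ a := fun a ha =>
    huniq (ι₁ a) _ _ (hf1 _) (hag a) (hf2 _) (hH1 ⟨a, ha, rfl⟩)
  have hΨπ : ∀ g, π₂ (Ψ g) = π₁ g := fun g => (hf1 g).symm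
  have hinj : Function.Injective Ψ := by
    rw [injective_iff_map_eq_one]
    intro g hg
    have h19 : π₁ g = 1 := by rw [← hΨπ, hg, map_one]
    have h20 : g ∈ A.map ι₁ := by rw [← k₁]; exact h19
    obtain ⟨a, ha, rfl⟩ := h20
    rw [hΨA a ha] at hg
    have h21 : a = 1 := h₂ (by rw [hg, map_one])
    rw [h21, map_one]
  have hsurj : Function.Surjective Ψ := by
    intro y
    obtain ⟨g, hg⟩ := s₁ (π₂ y)
    have h22 : π₂ ((Ψ g)⁻¹ * y) = 1 := by rw [map_mul, map_inv, hΨπ, hg, inv_mul_cancel]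
    have h23 : (Ψ g)⁻¹ * y ∈ A.map ι₂ := by rw [← k₂]; exact h22
    obtain ⟨a, ha, h24⟩ := h23
    refine ⟨g * ι₁ a, ?_⟩
    rw [map_mul, hΨA a ha, h24, mul_inv_cancel_left]
  refine ⟨MulEquiv.ofBijective Ψ ⟨hinj, hsurj⟩, hΨπ, hΨA, fun t => ?_⟩
  have h25 : π₂ ((ι₂ t)⁻¹ * Ψ (ι₁ t)) = 1 := by rw [map_mul, map_inv, hΨπ, hag, inv_mul_cancel]
  have h26 : (ι₂ t)⁻¹ * Ψ (ι₁ t) ∈ A.map ι₂ := by rw [← k₂]; exact h25
  obtain ⟨a, ha, h27⟩ := h26
  refine ⟨a, ha, ?_⟩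
  change Ψ (ι₁ t) = _
  rw [map_mul, h27, mul_inv_cancel_left]

end Cfsg.Agent.H800.FX
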